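import Cfsg.Agent.Lib.Hall.Basic
import Mathlib.GroupTheory.Index
import Mathlib.GroupTheory.OrderOfElement
import Mathlib.GroupTheory.QuotientGroup.Basic
import Mathlib.Tactic

/-!
# Groups with a four-group of small centralisers

The order of a finite group with bounded Sylow `2`-subgroups and a four-group all of whose
involutions have bounded centralisers is bounded.
-/

set_option autoImplicit false
set_option linter.unusedSectionVars false
set_option linter.style.haveILetI false

namespace Cfsg.Agent.Lib.DeficiencyBound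

open Subgroup

universe u

variable {N : Type u} [Group N] [Finite N]

/-- The square root in a group of odd order. -/
noncomputable def sqr (x : N) : N := x ^ ((Nat.card N + 1) / 2)

theorem sqr_mul_sqr (h : Odd (Nat.card N)) (x : N) : sqr x * sqr x = x := by
  obtain ⟨j, hj⟩ := h
  rw [sqr, ← pow_add, show (Nat.card N + 1) / 2 + (Nat.card N + 1) / 2 = Nat.card N + 1 by omega,
    pow_succ, pow_card_eq_one', one_mul]

theorem eq_of_sq_eq (h : Odd (Nat.card N)) {x y : N} (he : x * x = y * y) : x = y := by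
  obtain ⟨j, hj⟩ := h
  have key : ∀ z : N, (z * z) ^ (j + 1) = z := fun z => by
    rw [← pow_two, ← pow_mul, show 2 * (j + 1) = Nat.card N + 1 by omega, pow_succ, pow_card_eq_one',
      one_mul]
  rw [← key x, he, key]

theorem map_sqr (t : MulAut N) (x : N) : t (sqr x) = sqr (t x) := map_pow t x _

theorem sqr_inv (x : N) : sqr x⁻¹ = (sqr x)⁻¹ := inv_pow x _

theorem exists_decomp (h : Odd (Nat.card N)) (t : MulAut N) (ht : ∀ x, t (t x) = x) (n : N) :
    ∃ a i : N, t a = a ∧ t i = i⁻¹ ∧ n = a * i := by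
  set j := sqr (n⁻¹ * t n) with hj
  have hjj : j * j = n⁻¹ * t n := sqr_mul_sqr h _
  have htj : t j = j⁻¹ := by
    rw [hj, map_sqr, map_mul, map_inv, ht, ← sqr_inv, mul_inv_rev, inv_inv]
  refine ⟨n * j, j⁻¹, ?_, by rw [map_inv, htj], by rw [mul_inv_cancel_right]⟩
  rw [map_mul, htj, show t n = n * (n⁻¹ * t n) by group, ← hjj]
  group

theorem decomp_unique (h : Odd (Nat.card N)) (t : MulAut N) {a i a' i' : N} (ha : t a = a)
    (hi : t i = i⁻¹) (ha' : t a' = a') (hi' : t i' = i'⁻¹) (he : a * i = a' * i') :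
    a = a' ∧ i = i' := by
  have h1 : t (i * i'⁻¹) = i * i'⁻¹ := by
    have h2 : i * i'⁻¹ = a⁻¹ * a' := by
      rw [eq_inv_mul_iff_mul_eq, ← mul_assoc, he, mul_inv_cancel_right]
    rw [h2, map_mul, map_inv, ha, ha']
  rw [map_mul, map_inv, hi, hi', inv_inv] at h1
  have h3 : i = i' := eq_of_sq_eq h (by
    calc i * i = i * (i * i'⁻¹) * i' := by group
      _ = i * (i⁻¹ * i') * i' := by rw [h1]
      _ = i' * i' := by group)
  exact ⟨mul_right_cancel (h3 ▸ he : a * i' = a' * i'), h3⟩

/-- Groups of odd order under a four-group of automorphisms. -/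
theorem card_le_of_odd (h : Odd (Nat.card N)) (t v : MulAut N) (ht : ∀ x, t (t x) = x)
    (hv : ∀ x, v (v x) = x) (htv : ∀ x, t (v x) = v (t x)) :
    Nat.card N ≤ Nat.card {x : N // t x = x} *
      (Nat.card {x : N // v x = x} * Nat.card {x : N // t (v x) = x}) := by
  rw [← Nat.card_prod, ← Nat.card_prod]
  have key : ∀ n : N, ∃ q : {x : N // t x = x} × {x : N // v x = x} × {x : N // t (v x) = x},
      n = q.1.1 * (q.2.1.1 * q.2.2.1 * q.2.1.1) := by
    intro n
    obtain ⟨a, i, ha, hi, rfl⟩ := exists_decomp h t ht n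
    obtain ⟨b, k, hb, hk, rfl⟩ := exists_decomp h v hv i
    have h1 : v (t b) = t b := by rw [← htv, hb]
    have h2 : v (t k) = (t k)⁻¹ := by rw [← htv, hk, map_inv]
    have h3 : v (b * k⁻¹ * b⁻¹) = (b * k⁻¹ * b⁻¹)⁻¹ := by
      rw [map_mul, map_mul, map_inv, map_inv, hb, hk]; group
    have h4 : v b⁻¹ = b⁻¹ := by rw [map_inv, hb]
    obtain ⟨h5, h6⟩ := decomp_unique h v h1 h2 h4 h3 (by rw [← map_mul, hi]; group)
    have hss := sqr_mul_sqr h b
    have hts : t (sqr b) = (sqr b)⁻¹ := by rw [map_sqr, h5, sqr_inv]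
    have hvs : v (sqr b) = sqr b := by rw [map_sqr, hb]
    refine ⟨⟨⟨a, ha⟩, ⟨sqr b, hvs⟩, ⟨sqr b * k * (sqr b)⁻¹, ?_⟩⟩, ?_⟩
    · calc t (v (sqr b * k * (sqr b)⁻¹)) = t (sqr b * k⁻¹ * (sqr b)⁻¹) :=
            congrArg t (by rw [map_mul, map_mul, map_inv, hvs, hk])
        _ = (sqr b)⁻¹ * (b * k⁻¹ * b⁻¹)⁻¹ * sqr b := by
            rw [map_mul, map_mul, map_inv, map_inv, hts, h6, inv_inv]
        _ = sqr b * k * (sqr b)⁻¹ := by
            obtain ⟨s, hs⟩ : ∃ s, s = sqr b := ⟨_, rfl⟩
            rw [← hs] at hss ⊢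
            rw [← hss]; group
    · show a * (b * k) = a * (sqr b * (sqr b * k * (sqr b)⁻¹) * sqr b)
      obtain ⟨s, hs⟩ : ∃ s, s = sqr b := ⟨_, rfl⟩
      rw [← hs] at hss ⊢
      rw [← hss]; group
  choose f hf using key
  exact Nat.card_le_card_of_injective f fun x y hxy => by rw [hf x, hf y, hxy]

/-- An automorphism of order two with few fixed points gives a large centraliser. -/
theorem exists_large_centralizer (t : MulAut N) (ht : ∀ x, t (t x) = x) {c : ℕ}
    (hc : Nat.card {x : N // t x = x} ≤ c) (hbig : c < Nat.card N) :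
    ∃ z : N, z ≠ 1 ∧ Nat.card N ≤ 2 * c ^ 2 * Nat.card (centralizer ({z} : Set N)) := by
  classical
  haveI := Fintype.ofFinite N
  set φ : N → N := fun m => m⁻¹ * t m with hφ
  set I := Finset.univ.image φ with hI
  have hfib : ∀ y ∈ I, (Finset.univ.filter fun m => φ m = y).card ≤ c := by
    intro y hy
    obtain ⟨m₀, -, rfl⟩ := Finset.mem_image.1 hy
    refine le_trans ?_ hc
    rw [Nat.card_eq_fintype_card, Fintype.card_subtype]
    refine Finset.card_le_card_of_injOn (fun m => m * m₀⁻¹) (fun m hm => ?_)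
      fun a _ b _ hab => mul_right_cancel hab
    rw [Finset.mem_coe, Finset.mem_filter] at hm
    rw [Finset.mem_coe, Finset.mem_filter]
    refine ⟨Finset.mem_univ _, ?_⟩
    have h1 : t m = m * (m₀⁻¹ * t m₀) := by rw [← inv_mul_eq_iff_eq_mul]; exact hm.2
    rw [map_mul, map_inv, h1]; group
  have hN : Nat.card N ≤ I.card * c := by
    rw [Nat.card_eq_fintype_card, ← Finset.card_univ, ← smul_eq_mul]
    exact Finset.card_le_mul_card_image_of_maps_to (fun m _ => Finset.mem_image_of_mem φ (Finset.mem_univ m))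
      c hfib |>.trans_eq (by rw [smul_eq_mul, mul_comm])
  have hIinv : ∀ i ∈ I, t i = i⁻¹ := by
    intro i hi
    obtain ⟨m, -, rfl⟩ := Finset.mem_image.1 hi
    simp [hφ, ht]
  have hI2 : 2 ≤ I.card := by
    by_contra! h
    have : I.card * c ≤ c := by
      rcases (by omega : I.card = 0 ∨ I.card = 1) with h' | h' <;> simp [h']
    omega
  set J := (I ×ˢ I).filter fun q => q.1⁻¹ * q.2 ≠ 1 with hJ
  have hJcard : J.card + I.card = I.card * I.card := by
    rw [hJ, ← Finset.card_product, ← Finset.card_filter_add_card_filter_not (s := I ×ˢ I)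
      (p := fun q => q.1⁻¹ * q.2 ≠ 1)]
    congr 1
    rw [← Finset.card_map ⟨fun i => (i, i), fun a b h => (Prod.ext_iff.1 h).1⟩]
    congr 1
    ext ⟨a, b⟩
    simp only [Finset.mem_map, Finset.mem_filter, Finset.mem_product, Function.Embedding.coeFn_mk,
      Prod.mk.injEq, not_not, inv_mul_eq_one]
    constructor
    · rintro ⟨i, hi, rfl, rfl⟩; exact ⟨⟨hi, hi⟩, rfl⟩
    · intro h
      aesop
  have hJne : J.Nonempty := by
    rw [← Finset.card_pos]
    nlinarith
  obtain ⟨q₀, hq₀, hmax⟩ := Finset.exists_max_image J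
    (fun q => Nat.card (centralizer ({q.1⁻¹ * q.2} : Set N))) hJne
  set z := q₀.1⁻¹ * q₀.2 with hz
  refine ⟨z, (Finset.mem_filter.1 hq₀).2, ?_⟩
  have hJle : J.card ≤ Nat.card N * Nat.card (centralizer ({z} : Set N)) := by
    rw [Nat.card_eq_fintype_card (α := N), ← Finset.card_univ, mul_comm]
    refine Finset.card_le_mul_card_image_of_maps_to (f := fun q => q.1⁻¹ * q.2)
      (fun _ _ => Finset.mem_univ _) _ fun w _ => ?_
    by_cases hne : (J.filter fun q => q.1⁻¹ * q.2 = w).Nonempty
    swap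
    · rw [Finset.not_nonempty_iff_eq_empty.1 hne]; exact Nat.zero_le _
    obtain ⟨q₁, hq₁⟩ := hne
    obtain ⟨hq₁J, hq₁w⟩ := Finset.mem_filter.1 hq₁
    refine le_trans ?_ (hq₁w ▸ hmax q₁ hq₁J)
    rw [Nat.card_eq_fintype_card, ← Finset.card_univ]
    have hrel : ∀ q ∈ J.filter (fun q => q.1⁻¹ * q.2 = w),
        t w = q.1 * w⁻¹ * q.1⁻¹ := by
      intro q hq
      obtain ⟨hqJ, hqw⟩ := Finset.mem_filter.1 hq
      obtain ⟨h1, h2⟩ := Finset.mem_product.1 (Finset.mem_filter.1 hqJ).1
      rw [← hqw, map_mul, map_inv, hIinv _ h1, hIinv _ h2]; group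
    have hcm : ∀ q ∈ J.filter (fun q => q.1⁻¹ * q.2 = w),
        q₁.1⁻¹ * q.1 ∈ centralizer ({w} : Set N) := by
      intro q hq
      have h := (hrel q hq).symm.trans (hrel q₁ hq₁)
      rw [mem_centralizer_singleton_iff]
      have h' : q₁.1⁻¹ * q.1 * w⁻¹ = w⁻¹ * (q₁.1⁻¹ * q.1) := by
        calc q₁.1⁻¹ * q.1 * w⁻¹ = q₁.1⁻¹ * (q.1 * w⁻¹ * q.1⁻¹) * q.1 := by group
          _ = q₁.1⁻¹ * (q₁.1 * w⁻¹ * q₁.1⁻¹) * q.1 := by rw [h]
          _ = w⁻¹ * (q₁.1⁻¹ * q.1) := by group
      calc q₁.1⁻¹ * q.1 * w = w * (w⁻¹ * (q₁.1⁻¹ * q.1)) * w := by group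
        _ = w * (q₁.1⁻¹ * q.1 * w⁻¹) * w := by rw [h']
        _ = w * (q₁.1⁻¹ * q.1) := by group
    refine Finset.card_le_card_of_injOn
      (fun q => if hq : q₁.1⁻¹ * q.1 ∈ centralizer ({w} : Set N) then ⟨_, hq⟩ else 1)
      (fun _ _ => Finset.mem_coe.2 (Finset.mem_univ _)) fun a ha b hb hab => ?_
    rw [Finset.mem_coe] at ha hb
    simp only [dif_pos (hcm a ha), dif_pos (hcm b hb), Subtype.mk.injEq, mul_right_inj] at hab
    refine Prod.ext hab ?_
    have h1 := (Finset.mem_filter.1 ha).2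
    rw [← (Finset.mem_filter.1 hb).2, hab] at h1
    exact mul_left_cancel h1
  have hII : I.card * I.card ≤ 2 * (Nat.card N * Nat.card (centralizer ({z} : Set N))) := by
    nlinarith
  have h5 : Nat.card N * Nat.card N ≤
      (2 * c ^ 2 * Nat.card (centralizer ({z} : Set N))) * Nat.card N := by
    calc Nat.card N * Nat.card N ≤ (I.card * c) * (I.card * c) := Nat.mul_le_mul hN hN
      _ = (I.card * I.card) * c ^ 2 := by ring
      _ ≤ 2 * (Nat.card N * Nat.card (centralizer ({z} : Set N))) * c ^ 2 :=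
          Nat.mul_le_mul_right _ hII
      _ = _ := by ring
  exact Nat.le_of_mul_le_mul_right h5 Nat.card_pos

variable {G : Type u} [Group G] [Finite G]

/-- A minimal normal subgroup of even order under an involution with small centraliser. -/
theorem card_minimal_le {a c : ℕ} (ha : (Nat.card G).factorization 2 ≤ a) {M : Subgroup G}
    [hMn : M.Normal] (hmin : ∀ K : Subgroup G, K.Normal → K ≤ M → K = ⊥ ∨ K = M)
    (heven : 2 ∣ Nat.card M) {t : G} (ht : t * t = 1)
    (hc : Nat.card (centralizer ({t} : Set G)) ≤ c) :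
    Nat.card M ≤ c + 2 ^ a + ((2 * c ^ 2).factorial) ^ a := by
  classical
  haveI : Fact (Nat.Prime 2) := ⟨Nat.prime_two⟩
  have hMa : (Nat.card M).factorization 2 ≤ a :=
    le_trans (((Nat.factorization_le_iff_dvd Nat.card_pos.ne' Nat.card_pos.ne').2
      M.card_subgroup_dvd_card) 2) ha
  obtain ⟨τ, hτ⟩ : ∃ τ : MulAut M, ∀ x : M, ((τ x : M) : G) = t * x * t⁻¹ :=
    ⟨MulAut.conjNormal t, fun x => MulAut.conjNormal_apply t x⟩
  have hτ2 : ∀ x, τ (τ x) = x := fun x => Subtype.ext (by
    rw [hτ, hτ, ← mul_assoc, ← mul_assoc, ht, one_mul, mul_assoc (x : G), ← mul_inv_rev, ht, inv_one,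
      mul_one])
  have hfix : Nat.card {x : M // τ x = x} ≤ c := by
    refine le_trans (Nat.card_le_card_of_injective
      (fun x => (⟨(x.1 : G), mem_centralizer_singleton_iff.2 ?_⟩ : centralizer ({t} : Set G))) ?_) hc
    · have := congrArg Subtype.val x.2
      rw [hτ] at this
      exact (mul_inv_eq_iff_eq_mul.1 this).symm
    · exact fun x y h => Subtype.ext (Subtype.ext (Subtype.mk.inj h))
  have h2a : 0 < 2 ^ a := by positivity
  rcases Nat.lt_or_ge c (Nat.card M) with hbig | hsmall
  swap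
  · omega
  obtain ⟨z, hz1, hz⟩ := exists_large_centralizer τ hτ2 hfix hbig
  by_cases hzc : centralizer ({z} : Set M) = ⊤
  · -- a central element: `M` is an elementary abelian `2`-group
    haveI : ((center M).map M.subtype).Normal := ConjAct.normal_of_characteristic_of_normal
    have hzZ : z ∈ center M := mem_center_iff.2 fun y =>
      mem_centralizer_singleton_iff.1 (hzc ▸ mem_top y)
    have hcM : (center M).map M.subtype = M := by
      refine (hmin _ inferInstance (map_subtype_le _)).resolve_left fun h => hz1 ?_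
      rw [map_eq_bot_iff_of_injective _ M.subtype_injective] at h
      exact mem_bot.1 (h ▸ hzZ)
    have hcomm : ∀ x y : M, x * y = y * x := fun x y => by
      obtain ⟨x', hx', hxe⟩ := hcM.ge x.2
      rw [show x' = x from Subtype.ext hxe] at hx'
      exact (mem_center_iff.1 hx' y).symm
    let S : Subgroup G :=
      { carrier := {x | x ∈ M ∧ x * x = 1}
        one_mem' := ⟨M.one_mem, one_mul 1⟩
        mul_mem' := fun {x y} hx hy => ⟨M.mul_mem hx.1 hy.1, by
          have h : x * y = y * x := congrArg Subtype.val (hcomm ⟨x, hx.1⟩ ⟨y, hy.1⟩)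
          calc x * y * (x * y) = x * (y * x) * y := by group
            _ = x * (x * y) * y := by rw [h]
            _ = 1 := by rw [← mul_assoc x x y, hx.2, one_mul, hy.2]⟩
        inv_mem' := fun {x} hx => ⟨M.inv_mem hx.1, by rw [← mul_inv_rev, hx.2, inv_one]⟩ }
    have hS : S.Normal := ⟨fun x hx g => ⟨hMn.conj_mem x hx.1 g, by
      calc g * x * g⁻¹ * (g * x * g⁻¹) = g * (x * x) * g⁻¹ := by group
        _ = 1 := by rw [hx.2, mul_one, mul_inv_cancel]⟩⟩
    obtain ⟨x, hx⟩ := exists_prime_orderOf_dvd_card' (G := M) 2 heven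
    have hSM : S = M := by
      refine (hmin S hS fun y hy => hy.1).resolve_left fun h => ?_
      have : (x : G) ∈ S := ⟨x.2, by
        rw [← pow_two, ← hx, ← orderOf_coe, pow_orderOf_eq_one]⟩
      rw [h, mem_bot] at this
      rw [← orderOf_coe, this, orderOf_one] at hx
      exact absurd hx (by norm_num)
    have hp : IsPGroup 2 M := fun y => ⟨1, Subtype.ext (by
      have := (hSM.ge y.2).2
      simpa [pow_succ] using this)⟩
    obtain ⟨n, hn⟩ := IsPGroup.iff_card.1 hp
    have hna : n ≤ a := by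
      rw [hn, Nat.Prime.factorization_pow Nat.prime_two, Finsupp.single_eq_same] at hMa
      exact hMa
    have h2n : 2 ^ n ≤ 2 ^ a := Nat.pow_le_pow_right (by norm_num) hna
    omega
  -- a maximal normal subgroup of small index
  have hidx : (centralizer ({z} : Set M)).index ≤ 2 * c ^ 2 := by
    have h := (centralizer ({z} : Set M)).card_mul_index
    exact Nat.le_of_mul_le_mul_left (h.trans_le (hz.trans_eq (mul_comm _ _))) Nat.card_pos
  obtain ⟨L, ⟨hLn, hLC, hLtop⟩, hLmax⟩ := Set.Finite.exists_maximal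
    (s := {L : Subgroup M | L.Normal ∧ (centralizer ({z} : Set M)).normalCore ≤ L ∧ L ≠ ⊤})
    (Set.toFinite _) ⟨_, normalCore_normal _, le_rfl, fun h =>
      hzc (top_le_iff.1 (h ▸ normalCore_le _))⟩
  haveI := hLn
  have hk : L.index ≤ (2 * c ^ 2).factorial := by
    refine le_trans (Nat.le_of_dvd (Nat.pos_of_ne_zero index_ne_zero_of_finite)
      (index_dvd_of_le hLC)) ?_
    refine le_trans ?_ (Nat.factorial_le hidx)
    rw [normalCore_eq_ker, index_ker]
    refine le_trans (Nat.card_le_card_of_injective Subtype.val Subtype.val_injective) ?_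
    haveI := Fintype.ofFinite (M ⧸ centralizer ({z} : Set M))
    rw [Nat.card_eq_fintype_card, Fintype.card_perm, index_eq_card, Nat.card_eq_fintype_card]
  obtain ⟨Lg, hLg⟩ : ∃ Lg : G → Subgroup M, ∀ g, Lg g = L.map (MulAut.conjNormal g : MulAut M).toMonoidHom :=
    ⟨_, fun _ => rfl⟩
  have hLgn : ∀ g, (Lg g).Normal := fun g => by
    rw [hLg]; exact hLn.map _ (MulAut.conjNormal g : MulAut M).surjective
  have hLgi : ∀ g, (Lg g).index = L.index := fun g => by
    rw [hLg]; exact index_map_equiv L (MulAut.conjNormal g : MulAut M)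
  have hLgmax : ∀ g (K : Subgroup M), K.Normal → Lg g ≤ K → K = Lg g ∨ K = ⊤ := by
    intro g K hK hle
    set e : M ≃* M := (MulAut.conjNormal g : MulAut M)
    have h1 : L ≤ K.comap e.toMonoidHom := by
      rw [← map_le_iff_le_comap]; exact hLg g ▸ hle
    by_cases htop : K.comap e.toMonoidHom = ⊤
    · right
      rw [← map_comap_eq_self_of_surjective (f := e.toMonoidHom) e.surjective K, htop,
        map_top_of_surjective e.toMonoidHom e.surjective]
    · left
      have h2 : K.comap e.toMonoidHom = L :=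
        le_antisymm (hLmax (y := K.comap e.toMonoidHom) ⟨hK.comap _, hLC.trans h1, htop⟩ h1) h1
      rw [← map_comap_eq_self_of_surjective (f := e.toMonoidHom) e.surjective K, h2, hLg]
  haveI := Fintype.ofFinite G
  have hfam : ∀ s : Finset G, ∃ e, (s.inf Lg).index = L.index ^ e ∧ (s.inf Lg).Normal := by
    intro s
    induction s using Finset.induction_on with
    | empty => exact ⟨0, by simp, by rw [Finset.inf_empty]; infer_instance⟩
    | insert g s hg ih =>
      obtain ⟨e, he, hn⟩ := ih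
      haveI := hn
      haveI := hLgn g
      rw [Finset.inf_insert]
      by_cases hle : s.inf Lg ≤ Lg g
      · exact ⟨e, by rw [inf_eq_right.2 hle, he], inferInstance⟩
      · refine ⟨e + 1, ?_, inferInstance⟩
        have hsup : s.inf Lg ⊔ Lg g = ⊤ := ((hLgmax g _ inferInstance le_sup_right).resolve_left
          fun h => hle (h ▸ le_sup_left))
        have h1 : (Lg g).relIndex (s.inf Lg) = L.index := by
          rw [← relIndex_sup_right, hsup, relIndex_top_right, hLgi]
        rw [← relIndex_mul_index (inf_le_right : Lg g ⊓ s.inf Lg ≤ s.inf Lg),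
          inf_relIndex_right, h1, he, pow_succ, mul_comm]
  obtain ⟨e, he, -⟩ := hfam Finset.univ
  have hbot : Finset.univ.inf Lg = ⊥ := by
    have hn : ((Finset.univ.inf Lg).map M.subtype).Normal := by
      refine ⟨?_⟩
      rintro _ ⟨x, hx, rfl⟩ g
      refine ⟨MulAut.conjNormal g x, ?_, MulAut.conjNormal_apply g x⟩
      rw [SetLike.mem_coe, Finset.inf_eq_iInf, mem_iInf] at hx ⊢
      intro h
      rw [mem_iInf] at ⊢
      intro _
      have h2 := (mem_iInf.1 (hx (g⁻¹ * h))) (Finset.mem_univ _)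
      rw [hLg] at h2 ⊢
      obtain ⟨l, hl, hle⟩ := h2
      refine ⟨l, hl, ?_⟩
      rw [← hle]
      simp only [MulEquiv.coe_toMonoidHom, map_mul, MulAut.mul_apply, map_inv]
      simp
    rcases hmin _ hn (map_subtype_le _) with h | h
    · exact (map_eq_bot_iff_of_injective _ M.subtype_injective).1 h
    · exfalso
      refine hLtop (top_le_iff.1 fun x _ => ?_)
      obtain ⟨x', hx', hxe⟩ := h.ge x.2
      rw [show x' = x from Subtype.ext hxe] at hx'
      have h1 := Finset.inf_le (f := Lg) (Finset.mem_univ (1 : G)) hx'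
      rw [hLg] at h1
      obtain ⟨l, hl, hle⟩ := h1
      have : l = x := by rw [← hle]; simp
      exact this ▸ hl
  rw [hbot, index_bot] at he
  have he1 : e ≤ a := by
    refine le_trans ?_ hMa
    rw [he, Nat.factorization_pow, Finsupp.smul_apply, smul_eq_mul]
    refine Nat.le_mul_of_pos_right _ ?_
    refine Nat.prime_two.factorization_pos_of_dvd index_ne_zero_of_finite ?_
    exact Nat.prime_two.dvd_of_dvd_pow (he ▸ heven)
  have h6 : Nat.card M ≤ ((2 * c ^ 2).factorial) ^ a := he.trans_le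
    ((Nat.pow_le_pow_left hk e).trans (Nat.pow_le_pow_right (Nat.factorial_pos _) he1))
  omega

/-- Centralisers in a quotient. -/
theorem card_centralizer_mk_le (K : Subgroup G) [K.Normal] (t : G) :
    Nat.card (centralizer ({(t : G ⧸ K)} : Set (G ⧸ K))) ≤
      Nat.card K * Nat.card (centralizer ({t} : Set G)) := by
  classical
  set X : Subgroup G := (centralizer ({(t : G ⧸ K)} : Set (G ⧸ K))).comap (QuotientGroup.mk' K)
  have h1 : Nat.card (centralizer ({(t : G ⧸ K)} : Set (G ⧸ K))) ≤ Nat.card X :=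
    Nat.card_le_card_of_surjective (fun x : X => (⟨_, x.2⟩ : centralizer ({(t : G ⧸ K)} : Set (G ⧸ K))))
      fun ⟨y, hy⟩ => by
        obtain ⟨g, rfl⟩ := QuotientGroup.mk'_surjective K y
        exact ⟨⟨g, hy⟩, rfl⟩
  refine h1.trans ?_
  have hk : ∀ x : X, (x : G) * t * (x : G)⁻¹ * t⁻¹ ∈ K := fun x => by
    have := mem_centralizer_singleton_iff.1 x.2
    rw [← QuotientGroup.eq_one_iff]
    simp only [QuotientGroup.mk'_apply] at this
    simp only [QuotientGroup.mk_mul, QuotientGroup.mk_inv, this, mul_inv_cancel_right, mul_inv_cancel]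
  set f : X → K := fun x => ⟨_, hk x⟩
  choose s hs using fun y : Set.range f => y.2
  have hmem : ∀ x : X, ((s ⟨f x, x, rfl⟩ : X) : G)⁻¹ * x ∈ centralizer ({t} : Set G) := by
    intro x
    have h := congrArg Subtype.val (hs ⟨f x, x, rfl⟩)
    simp only [f, mul_left_inj] at h
    rw [mem_centralizer_singleton_iff]
    calc ((s ⟨f x, x, rfl⟩ : X) : G)⁻¹ * x * t
        = ((s ⟨f x, x, rfl⟩ : X) : G)⁻¹ * ((x : G) * t * (x : G)⁻¹) * x := by group
      _ = ((s ⟨f x, x, rfl⟩ : X) : G)⁻¹ *
            (((s ⟨f x, x, rfl⟩ : X) : G) * t * ((s ⟨f x, x, rfl⟩ : X) : G)⁻¹) * x :=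
          congrArg (fun y => ((s ⟨f x, x, rfl⟩ : X) : G)⁻¹ * y * (x : G)) h.symm
      _ = _ := by group
  rw [← Nat.card_prod]
  refine Nat.card_le_card_of_injective
    (fun x => ((f x, ⟨_, hmem x⟩) : K × centralizer ({t} : Set G))) fun x y h => ?_
  obtain ⟨h1, h2⟩ := Prod.ext_iff.1 h
  have h3 := congrArg Subtype.val h2
  have h4 : s ⟨f x, x, rfl⟩ = s ⟨f y, y, rfl⟩ := congrArg s (Subtype.ext h1)
  simp only [h4] at h3
  exact Subtype.ext (mul_left_cancel h3)

/-- The bound for a four-group with small centralisers. -/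
theorem exists_klein_bound : ∀ a c : ℕ, ∃ B : ℕ, ∀ (G : Type u) [Group G] [Finite G] (t v : G),
    (Nat.card G).factorization 2 ≤ a → t ≠ 1 → v ≠ 1 → t ≠ v → t * t = 1 → v * v = 1 →
      t * v = v * t → Nat.card (centralizer ({t} : Set G)) ≤ c →
      Nat.card (centralizer ({v} : Set G)) ≤ c → Nat.card (centralizer ({t * v} : Set G)) ≤ c →
      Nat.card G ≤ B := by
  intro a
  induction a with
  | zero =>
    intro c
    refine ⟨0, fun G _ _ t v ha ht _ _ htt _ _ _ _ _ => absurd ?_ ht⟩
    haveI : Fact (Nat.Prime 2) := ⟨Nat.prime_two⟩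
    by_contra h
    have h2 : orderOf t = 2 := orderOf_eq_prime (by rw [pow_two, htt]) h
    have := Nat.prime_two.factorization_pos_of_dvd Nat.card_pos.ne' (h2 ▸ orderOf_dvd_natCard t)
    omega
  | succ a ih =>
    -- first the case of a trivial odd core
    have key : ∀ c : ℕ, ∃ B : ℕ, ∀ (G : Type u) [Group G] [Finite G] (t v : G),
        Cfsg.pPrimeCore 2 G = ⊥ →
        (Nat.card G).factorization 2 ≤ a + 1 → t ≠ 1 → v ≠ 1 → t ≠ v → t * t = 1 → v * v = 1 →
        t * v = v * t → Nat.card (centralizer ({t} : Set G)) ≤ c →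
        Nat.card (centralizer ({v} : Set G)) ≤ c → Nat.card (centralizer ({t * v} : Set G)) ≤ c →
        Nat.card G ≤ B := by
      intro c
      obtain ⟨m, hm⟩ : ∃ m, m = c + 2 ^ (a + 1) + ((2 * c ^ 2).factorial) ^ (a + 1) := ⟨_, rfl⟩
      obtain ⟨B, hB⟩ := ih (m * c)
      refine ⟨c * m ^ m + m * B, fun G _ _ t v hO ha ht hv htv htt hvv hcomm hct hcv hctv => ?_⟩
      have h2a : 0 < 2 ^ (a + 1) := by positivity
      classical
      haveI : Fact (Nat.Prime 2) := ⟨Nat.prime_two⟩
      haveI : Nontrivial G := ⟨t, 1, ht⟩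
      obtain ⟨M, ⟨hMn, hMne⟩, hMmin⟩ := Set.Finite.exists_minimal
        (s := {K : Subgroup G | K.Normal ∧ K ≠ ⊥}) (Set.toFinite _) ⟨⊤, inferInstance, top_ne_bot⟩
      haveI := hMn
      have hmin : ∀ K : Subgroup G, K.Normal → K ≤ M → K = ⊥ ∨ K = M := fun K hK hKM =>
        or_iff_not_imp_left.2 fun h => le_antisymm hKM (hMmin (y := K) ⟨hK, h⟩ hKM)
      have heven : 2 ∣ Nat.card M := by
        by_contra h
        exact hMne (le_bot_iff.1 (hO ▸ Hall.le_pPrimeCore
          ((Nat.prime_two.coprime_iff_not_dvd.2 h).symm)))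
      have hMm : Nat.card M ≤ m := hm ▸ card_minimal_le ha hmin heven htt hct
      have hin : ∀ w : G, w ∈ M → w ≠ 1 → Nat.card (centralizer ({w} : Set G)) ≤ c →
          Nat.card G ≤ c * m ^ m := by
        intro w hw _ hcw
        set φ : G →* MulAut M := MulAut.conjNormal with hφ
        have hker : Nat.card φ.ker ≤ c := by
          refine le_trans (card_le_of_le fun x hx => mem_centralizer_singleton_iff.2 ?_) hcw
          have h1 := congrArg Subtype.val (DFunLike.congr_fun (MonoidHom.mem_ker.1 hx) ⟨w, hw⟩)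
          rw [hφ, MulAut.conjNormal_apply] at h1
          exact mul_inv_eq_iff_eq_mul.1 h1
        have haut : Nat.card φ.range ≤ m ^ m := by
          refine le_trans (Nat.card_le_card_of_injective (fun e : φ.range => (⇑(e : MulAut M) : M → M))
            fun e e' h => Subtype.ext (DFunLike.coe_injective h)) ?_
          rw [Nat.card_fun]
          exact (Nat.pow_le_pow_left hMm _).trans (Nat.pow_le_pow_right (by omega) hMm)
        rw [← φ.ker.card_mul_index, index_ker]
        exact Nat.mul_le_mul hker haut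
      by_cases h1 : t ∈ M
      · exact (hin t h1 ht hct).trans (Nat.le_add_right _ _)
      by_cases h2 : v ∈ M
      · exact (hin v h2 hv hcv).trans (Nat.le_add_right _ _)
      by_cases h3 : t * v ∈ M
      · exact (hin _ h3 (fun h => htv ((mul_eq_one_iff_eq_inv.1 h).trans
          (inv_eq_of_mul_eq_one_right hvv))) hctv).trans (Nat.le_add_right _ _)
      refine le_trans ?_ (Nat.le_add_left _ _)
      rw [card_eq_card_quotient_mul_card_subgroup M, mul_comm]
      refine Nat.mul_le_mul hMm (hB (G ⧸ M) (t : G ⧸ M) (v : G ⧸ M) ?_ ?_ ?_ ?_ ?_ ?_ ?_ ?_ ?_ ?_)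
      · have h4 := congrArg (fun n : ℕ => n.factorization 2) (card_eq_card_quotient_mul_card_subgroup M)
        simp only [Nat.factorization_mul Nat.card_pos.ne' Nat.card_pos.ne', Finsupp.add_apply] at h4
        have h5 := Nat.prime_two.factorization_pos_of_dvd Nat.card_pos.ne' heven
        omega
      · exact fun h => h1 ((QuotientGroup.eq_one_iff t).1 h)
      · exact fun h => h2 ((QuotientGroup.eq_one_iff v).1 h)
      · intro h
        rw [QuotientGroup.eq] at h
        rw [inv_eq_of_mul_eq_one_right htt] at h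
        exact h3 h
      · rw [← QuotientGroup.mk_mul, htt, QuotientGroup.mk_one]
      · rw [← QuotientGroup.mk_mul, hvv, QuotientGroup.mk_one]
      · rw [← QuotientGroup.mk_mul, hcomm, QuotientGroup.mk_mul]
      · exact (card_centralizer_mk_le M t).trans (Nat.mul_le_mul hMm hct)
      · exact (card_centralizer_mk_le M v).trans (Nat.mul_le_mul hMm hcv)
      · rw [← QuotientGroup.mk_mul]
        exact (card_centralizer_mk_le M _).trans (Nat.mul_le_mul hMm hctv)
    intro c
    obtain ⟨B, hB⟩ := key (c * (c * c) * c)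
    refine ⟨c * (c * c) * B, fun G _ _ t v ha ht hv htv htt hvv hcomm hct hcv hctv => ?_⟩
    classical
    set O := Cfsg.pPrimeCore 2 G with hO
    have hodd : Odd (Nat.card O) := by
      rw [← Nat.not_even_iff_odd, even_iff_two_dvd]
      exact Hall.not_dvd_card_pPrimeCore Nat.prime_two
    have hOc : Nat.card O ≤ c * (c * c) := by
      have hsq : ∀ w : G, w * w = 1 → ∀ x : O,
          MulAut.conjNormal (H := O) w (MulAut.conjNormal w x) = x := fun w hw x => by
        rw [← MulAut.mul_apply, ← map_mul, hw, map_one, MulAut.one_apply]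
      have hf : ∀ (w : G) (e : O → O), (∀ x, (e x : G) = w * x * w⁻¹) →
          Nat.card (centralizer ({w} : Set G)) ≤ c → Nat.card {x : O // e x = x} ≤ c := by
        intro w e he hcw
        refine le_trans (Nat.card_le_card_of_injective
          (fun x => (⟨(x.1 : G), mem_centralizer_singleton_iff.2 ?_⟩ : centralizer ({w} : Set G))) ?_) hcw
        · have h := congrArg Subtype.val x.2
          rw [he] at h
          exact (mul_inv_eq_iff_eq_mul.1 h).symm
        · exact fun x y h => Subtype.ext (Subtype.ext (Subtype.mk.inj h))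
      refine le_trans (card_le_of_odd hodd (MulAut.conjNormal (H := O) t) (MulAut.conjNormal v)
        (hsq t htt) (hsq v hvv) fun x => ?_) (Nat.mul_le_mul (hf t _ (MulAut.conjNormal_apply t) hct)
          (Nat.mul_le_mul (hf v _ (MulAut.conjNormal_apply v) hcv) (hf (t * v) _ (fun x => ?_) hctv)))
      · rw [← MulAut.mul_apply, ← map_mul, hcomm, map_mul, MulAut.mul_apply]
      · rw [← MulAut.mul_apply, ← map_mul, MulAut.conjNormal_apply]
    have hnotin : ∀ w : G, w ≠ 1 → w * w = 1 → w ∉ O := by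
      intro w hw hww hwO
      haveI : Fact (Nat.Prime 2) := ⟨Nat.prime_two⟩
      refine Hall.not_dvd_card_pPrimeCore (G := G) Nat.prime_two ?_
      have h := orderOf_dvd_natCard (⟨w, hwO⟩ : O)
      rwa [orderOf_mk, orderOf_eq_prime (by rw [pow_two, hww]) hw] at h
    have hOO : Cfsg.pPrimeCore 2 (G ⧸ O) = ⊥ := by
      set Q := (Cfsg.pPrimeCore 2 (G ⧸ O)).comap (QuotientGroup.mk' O) with hQ
      have hQn : Q.Normal := Subgroup.Normal.comap inferInstance _
      have hle : O ≤ Q := (QuotientGroup.ker_mk' O).ge.trans (ker_le_comap _ _)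
      have hcard : Nat.card Q = Nat.card (Cfsg.pPrimeCore 2 (G ⧸ O)) * Nat.card O := by
        refine Nat.eq_of_mul_eq_mul_right (Nat.pos_of_ne_zero (index_ne_zero_of_finite (H := Q))) ?_
        rw [Q.card_mul_index, hQ, index_comap_of_surjective _ (QuotientGroup.mk'_surjective O),
          card_eq_card_quotient_mul_card_subgroup O, ← (Cfsg.pPrimeCore 2 (G ⧸ O)).card_mul_index]
        ring
      have : Q ≤ O := by
        refine Hall.le_pPrimeCore (N := Q) ?_
        rw [hcard]
        exact (Hall.coprime_card_pPrimeCore (G := G ⧸ O) 2).mul_left (Hall.coprime_card_pPrimeCore 2)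
      rw [eq_bot_iff]
      intro y hy
      obtain ⟨g, rfl⟩ := QuotientGroup.mk'_surjective O y
      exact mem_bot.2 ((QuotientGroup.eq_one_iff g).2 (this hy))
    rw [card_eq_card_quotient_mul_card_subgroup O, mul_comm]
    refine Nat.mul_le_mul hOc (hB (G ⧸ O) (t : G ⧸ O) (v : G ⧸ O) hOO ?_ ?_ ?_ ?_ ?_ ?_ ?_ ?_ ?_ ?_)
    · exact le_trans (((Nat.factorization_le_iff_dvd Nat.card_pos.ne' Nat.card_pos.ne').2
        (Subgroup.card_quotient_dvd_card O)) 2) ha
    · exact fun h => hnotin t ht htt ((QuotientGroup.eq_one_iff t).1 h)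
    · exact fun h => hnotin v hv hvv ((QuotientGroup.eq_one_iff v).1 h)
    · intro h
      rw [QuotientGroup.eq, inv_eq_of_mul_eq_one_right htt] at h
      refine hnotin (t * v) (fun h' => htv ((mul_eq_one_iff_eq_inv.1 h').trans
        (inv_eq_of_mul_eq_one_right hvv))) ?_ h
      rw [mul_assoc, ← mul_assoc v t v, ← hcomm, mul_assoc t v v, hvv, mul_one, htt]
    · rw [← QuotientGroup.mk_mul, htt, QuotientGroup.mk_one]
    · rw [← QuotientGroup.mk_mul, hvv, QuotientGroup.mk_one]
    · rw [← QuotientGroup.mk_mul, hcomm, QuotientGroup.mk_mul]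
    · exact (card_centralizer_mk_le O t).trans (Nat.mul_le_mul hOc hct)
    · exact (card_centralizer_mk_le O v).trans (Nat.mul_le_mul hOc hcv)
    · rw [← QuotientGroup.mk_mul]
      exact (card_centralizer_mk_le O _).trans (Nat.mul_le_mul hOc hctv)

end Cfsg.Agent.Lib.DeficiencyBound
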